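import Mathlib

/-!
# Ovoids of the generalized quadrangle GQ(2,2)

A graph `SRG(15, 6, 1, 3)` has exactly six 5-cocliques; a non-edge lies in exactly one of them, and a vertex
in exactly two.
-/

set_option autoImplicit false
set_option linter.unusedSectionVars false

namespace Cfsg.Agent.Lib.Srg77.GQ

open Finset

variable {α : Type*} [Fintype α] [DecidableEq α] {H : SimpleGraph α} [DecidableRel H.Adj]

local notation "Nb" => H.neighborFinset

theorem card_Nb (hH : H.IsSRGWith 15 6 1 3) (v : α) : (Nb v).card = 6 := hH.regular v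

theorem inter_eq_common (v w : α) : Nb v ∩ Nb w = (H.commonNeighbors v w).toFinset := by
  ext a
  simp [SimpleGraph.mem_commonNeighbors]

theorem inter_adj (hH : H.IsSRGWith 15 6 1 3) {v w : α} (h : H.Adj v w) : (Nb v ∩ Nb w).card = 1 := by
  rw [inter_eq_common, Set.toFinset_card]
  exact hH.of_adj v w h

theorem inter_non (hH : H.IsSRGWith 15 6 1 3) {v w : α} (hne : v ≠ w) (h : ¬ H.Adj v w) :
    (Nb v ∩ Nb w).card = 3 := by
  rw [inter_eq_common, Set.toFinset_card]
  exact hH.of_not_adj hne h

/-- Two common neighbours of an edge coincide. -/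
theorem common_unique (hH : H.IsSRGWith 15 6 1 3) {a b u v : α} (hab : H.Adj a b)
    (hu1 : H.Adj u a) (hu2 : H.Adj u b) (hv1 : H.Adj v a) (hv2 : H.Adj v b) : u = v := by
  have h := inter_adj hH hab
  rw [Finset.card_eq_one] at h
  obtain ⟨c, hc⟩ := h
  have h1 : u ∈ Nb a ∩ Nb b := by simp [hu1.symm, hu2.symm]
  have h2 : v ∈ Nb a ∩ Nb b := by simp [hv1.symm, hv2.symm]
  rw [hc, mem_singleton] at h1 h2
  rw [h1, h2]

/-- The quadrangle property: a point off a line is collinear with one of its points. -/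
theorem exists_adj (hH : H.IsSRGWith 15 6 1 3) {a b c w : α} (hab : H.Adj a b) (hac : H.Adj a c) (hbc : H.Adj b c)
    (hwa : w ≠ a) (hwb : w ≠ b) (hwc : w ≠ c) : H.Adj w a ∨ H.Adj w b ∨ H.Adj w c := by
  by_contra hcon
  push Not at hcon
  obtain ⟨h1, h2, h3⟩ := hcon
  have hneab : a ≠ b := hab.ne
  have hneac : a ≠ c := hac.ne
  have hnebc : b ≠ c := hbc.ne
  set X₁ := (Nb a).erase b |>.erase c with hX₁
  set X₂ := (Nb b).erase a |>.erase c with hX₂
  set X₃ := (Nb c).erase a |>.erase b with hX₃
  have c1 : X₁.card = 4 := by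
    rw [hX₁, card_erase_of_mem, card_erase_of_mem, card_Nb hH]
    · simp [hab]
    · simp [hac, hnebc.symm]
  have c2 : X₂.card = 4 := by
    rw [hX₂, card_erase_of_mem, card_erase_of_mem, card_Nb hH]
    · simp [hab.symm]
    · simp [hbc, hneac.symm]
  have c3 : X₃.card = 4 := by
    rw [hX₃, card_erase_of_mem, card_erase_of_mem, card_Nb hH]
    · simp [hac.symm]
    · simp [hbc.symm, hneab.symm]
  have d12 : Disjoint X₁ X₂ := by
    rw [Finset.disjoint_left]
    intro u hu1 hu2
    simp only [hX₁, hX₂, mem_erase, SimpleGraph.mem_neighborFinset] at hu1 hu2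
    exact hu1.1 (common_unique hH hab hu1.2.2.symm hu2.2.2.symm hac.symm hbc.symm)
  have d13 : Disjoint X₁ X₃ := by
    rw [Finset.disjoint_left]
    intro u hu1 hu2
    simp only [hX₁, hX₃, mem_erase, SimpleGraph.mem_neighborFinset] at hu1 hu2
    exact hu1.2.1 (common_unique hH hac hu1.2.2.symm hu2.2.2.symm hab.symm hbc)
  have d23 : Disjoint X₂ X₃ := by
    rw [Finset.disjoint_left]
    intro u hu1 hu2
    simp only [hX₂, hX₃, mem_erase, SimpleGraph.mem_neighborFinset] at hu1 hu2
    exact hu1.2.1 (common_unique hH hbc hu1.2.2.symm hu2.2.2.symm hab hac)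
  have hunion : (X₁ ∪ X₂ ∪ X₃).card = 12 := by
    rw [card_union_of_disjoint (disjoint_union_left.2 ⟨d13, d23⟩), card_union_of_disjoint d12, c1, c2, c3]
  have hsub : X₁ ∪ X₂ ∪ X₃ ⊆ (univ : Finset α) \ {a, b, c, w} := by
    intro u hu
    simp only [hX₁, hX₂, hX₃, mem_union, mem_erase, SimpleGraph.mem_neighborFinset, mem_sdiff, mem_univ, true_and,
      mem_insert, mem_singleton, not_or] at hu ⊢
    rcases hu with (⟨h4, h5, h6⟩ | ⟨h4, h5, h6⟩) | ⟨h4, h5, h6⟩
    · refine ⟨h6.ne.symm, h5, h4, ?_⟩
      rintro rfl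
      exact h1 h6.symm
    · refine ⟨h5, h6.ne.symm, h4, ?_⟩
      rintro rfl
      exact h2 h6.symm
    · refine ⟨h5, h4, h6.ne.symm, ?_⟩
      rintro rfl
      exact h3 h6.symm
  have hc := card_le_card hsub
  rw [hunion, card_sdiff_of_subset (subset_univ _), card_univ, hH.card] at hc
  have h4 : ({a, b, c, w} : Finset α).card = 4 := by
    rw [card_insert_of_notMem, card_insert_of_notMem, card_insert_of_notMem, card_singleton]
    · simp [hwc.symm]
    · simp [hnebc, hwb.symm]
    · simp [hneab, hneac, hwa.symm]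
  omega

/-- The common non-neighbours of `p` and `q`. -/
def SS (H : SimpleGraph α) [DecidableRel H.Adj] (p q : α) : Finset α :=
  univ.filter fun s => s ≠ p ∧ s ≠ q ∧ ¬ H.Adj p s ∧ ¬ H.Adj q s

theorem mem_SS {p q s : α} : s ∈ SS H p q ↔ s ≠ p ∧ s ≠ q ∧ ¬ H.Adj p s ∧ ¬ H.Adj q s := by
  simp [SS]

theorem card_SS (hH : H.IsSRGWith 15 6 1 3) {p q : α} (hne : p ≠ q) (hn : ¬ H.Adj p q) :
    (SS H p q).card = 4 := by
  have h1 : SS H p q = univ \ insert p (insert q (Nb p ∪ Nb q)) := by
    ext s
    simp only [mem_SS, mem_sdiff, mem_univ, true_and, mem_insert, mem_union, SimpleGraph.mem_neighborFinset, not_or]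
  have h2 : (Nb p ∪ Nb q).card = 9 := by
    have := card_union_add_card_inter (Nb p) (Nb q)
    rw [card_Nb hH, card_Nb hH, inter_non hH hne hn] at this
    omega
  rw [h1, card_sdiff_of_subset (subset_univ _), card_univ, hH.card, card_insert_of_notMem, card_insert_of_notMem, h2]
  · simp only [mem_union, SimpleGraph.mem_neighborFinset, not_or]
    exact ⟨fun h => hn h, H.loopless.irrefl q⟩
  · simp only [mem_insert, mem_union, SimpleGraph.mem_neighborFinset, not_or]
    exact ⟨hne, H.loopless.irrefl p, fun h => hn h.symm⟩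

theorem card_inter_S (hH : H.IsSRGWith 15 6 1 3) {p q s : α} (hs : s ∈ SS H p q) :
    (Nb s ∩ SS H p q).card = (Nb s ∩ (Nb p ∩ Nb q)).card := by
  rw [mem_SS] at hs
  obtain ⟨h1, h2, h3, h4⟩ := hs
  have hsp : ¬ H.Adj s p := fun h => h3 h.symm
  have hsq : ¬ H.Adj s q := fun h => h4 h.symm
  have e1 : (Nb s ∩ SS H p q) ∪ ((Nb s ∩ Nb p) ∪ (Nb s ∩ Nb q)) = Nb s := by
    ext v
    simp only [mem_union, mem_inter, SimpleGraph.mem_neighborFinset, mem_SS]
    constructor
    · rintro (h | h | h) <;> exact h.1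
    · intro h
      by_cases h5 : H.Adj p v
      · exact Or.inr (Or.inl ⟨h, h5⟩)
      · by_cases h6 : H.Adj q v
        · exact Or.inr (Or.inr ⟨h, h6⟩)
        · refine Or.inl ⟨h, ?_, ?_, h5, h6⟩
          · rintro rfl
            exact hsp h
          · rintro rfl
            exact hsq h
  have e2 : Disjoint (Nb s ∩ SS H p q) ((Nb s ∩ Nb p) ∪ (Nb s ∩ Nb q)) := by
    rw [Finset.disjoint_left]
    intro v hv hv'
    simp only [mem_union, mem_inter, SimpleGraph.mem_neighborFinset, mem_SS] at hv hv'
    rcases hv' with h | h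
    · exact hv.2.2.2.1 h.2
    · exact hv.2.2.2.2 h.2
  have e3 := card_union_of_disjoint e2
  rw [e1, card_Nb hH] at e3
  have e4 := card_union_add_card_inter (Nb s ∩ Nb p) (Nb s ∩ Nb q)
  have e5 : (Nb s ∩ Nb p) ∩ (Nb s ∩ Nb q) = Nb s ∩ (Nb p ∩ Nb q) := by
    ext v
    simp only [mem_inter]
    tauto
  rw [e5, inter_non hH h1 hsp, inter_non hH h2 hsq] at e4
  omega

theorem card_inter_Z (hH : H.IsSRGWith 15 6 1 3) {p q z : α} (hne : p ≠ q) (hn : ¬ H.Adj p q)
    (hz : z ∈ Nb p ∩ Nb q) : (Nb z ∩ SS H p q).card = 2 := by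
  simp only [mem_inter, SimpleGraph.mem_neighborFinset] at hz
  obtain ⟨hzp, hzq⟩ := hz
  have e1 : (Nb z ∩ SS H p q) ∪ ({p, q} ∪ ((Nb z ∩ Nb p) ∪ (Nb z ∩ Nb q))) = Nb z := by
    ext v
    simp only [mem_union, mem_inter, SimpleGraph.mem_neighborFinset, mem_SS, mem_insert, mem_singleton]
    constructor
    · rintro (h | (rfl | rfl) | h | h)
      · exact h.1
      · exact hzp.symm
      · exact hzq.symm
      · exact h.1
      · exact h.1
    · intro h
      by_cases h1 : v = p
      · exact Or.inr (Or.inl (Or.inl h1))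
      · by_cases h2 : v = q
        · exact Or.inr (Or.inl (Or.inr h2))
        · by_cases h5 : H.Adj p v
          · exact Or.inr (Or.inr (Or.inl ⟨h, h5⟩))
          · by_cases h6 : H.Adj q v
            · exact Or.inr (Or.inr (Or.inr ⟨h, h6⟩))
            · exact Or.inl ⟨h, h1, h2, h5, h6⟩
  have d0 : Disjoint (Nb z ∩ Nb p) (Nb z ∩ Nb q) := by
    rw [Finset.disjoint_left]
    intro v hv hv'
    simp only [mem_inter, SimpleGraph.mem_neighborFinset] at hv hv'
    exact hne (common_unique hH hv.1 hzp hv.2 hzq hv'.2)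
  have d1 : Disjoint ({p, q} : Finset α) ((Nb z ∩ Nb p) ∪ (Nb z ∩ Nb q)) := by
    rw [Finset.disjoint_left]
    intro v hv hv'
    simp only [mem_union, mem_inter, SimpleGraph.mem_neighborFinset, mem_insert, mem_singleton] at hv hv'
    rcases hv with rfl | rfl
    · rcases hv' with h | h
      · exact H.loopless.irrefl _ h.2
      · exact hn h.2.symm
    · rcases hv' with h | h
      · exact hn h.2
      · exact H.loopless.irrefl _ h.2
  have d2 : Disjoint (Nb z ∩ SS H p q) ({p, q} ∪ ((Nb z ∩ Nb p) ∪ (Nb z ∩ Nb q))) := by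
    rw [Finset.disjoint_left]
    intro v hv hv'
    simp only [mem_union, mem_inter, SimpleGraph.mem_neighborFinset, mem_SS, mem_insert, mem_singleton] at hv hv'
    rcases hv' with (rfl | rfl) | h | h
    · exact hv.2.1 rfl
    · exact hv.2.2.1 rfl
    · exact hv.2.2.2.1 h.2
    · exact hv.2.2.2.2 h.2
  have e3 := card_union_of_disjoint d2
  rw [e1, card_Nb hH, card_union_of_disjoint d1, card_union_of_disjoint d0, card_pair hne,
    inter_adj hH hzp.symm, inter_adj hH hzq.symm] at e3
  omega

theorem sum_deg (hH : H.IsSRGWith 15 6 1 3) {p q : α} (hne : p ≠ q) (hn : ¬ H.Adj p q) :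
    ∑ s ∈ SS H p q, (Nb s ∩ SS H p q).card = 6 := by
  rw [Finset.sum_congr rfl (fun s hs => card_inter_S hH hs)]
  have h1 : ∑ s ∈ SS H p q, (Nb s ∩ (Nb p ∩ Nb q)).card = ∑ z ∈ Nb p ∩ Nb q, (Nb z ∩ SS H p q).card := by
    simp only [Finset.card_eq_sum_ones]
    apply Finset.sum_comm'
    intro x y
    simp only [mem_inter, SimpleGraph.mem_neighborFinset]
    constructor
    · rintro ⟨h1, h2, h3⟩
      exact ⟨⟨h2.symm, h1⟩, h3⟩
    · rintro ⟨⟨h1, h2⟩, h3⟩
      exact ⟨h2, h1.symm, h3⟩
  rw [h1, Finset.sum_congr rfl (fun z hz => card_inter_Z hH hne hn hz), Finset.sum_const, inter_non hH hne hn]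
  rfl

/-- The edges inside `SS`. -/
theorem edge_prop (hH : H.IsSRGWith 15 6 1 3) {p q a b s : α} (hne : p ≠ q) (hn : ¬ H.Adj p q)
    (ha : a ∈ SS H p q) (hb : b ∈ SS H p q) (hs : s ∈ SS H p q) (hab : H.Adj a b) (hsa : s ≠ a) (hsb : s ≠ b) :
    (H.Adj s a ∧ ¬ H.Adj s b) ∨ (¬ H.Adj s a ∧ H.Adj s b) := by
  have h := inter_adj hH hab
  rw [Finset.card_eq_one] at h
  obtain ⟨c, hc⟩ := h
  have hcm : c ∈ Nb a ∩ Nb b := by rw [hc]; exact mem_singleton_self c
  simp only [mem_inter, SimpleGraph.mem_neighborFinset] at hcm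
  obtain ⟨hac, hbc⟩ := hcm
  rw [mem_SS] at ha hb hs
  have hpc : H.Adj p c := by
    have hpne : p ≠ c := by
      rintro rfl
      exact ha.2.2.1 hac.symm
    rcases exists_adj hH hab hac hbc ha.1.symm hb.1.symm hpne with h | h | h
    · exact absurd h ha.2.2.1
    · exact absurd h hb.2.2.1
    · exact h
  have hqc : H.Adj q c := by
    have hpne : q ≠ c := by
      rintro rfl
      exact ha.2.2.2 hac.symm
    rcases exists_adj hH hab hac hbc ha.2.1.symm hb.2.1.symm hpne with h | h | h
    · exact absurd h ha.2.2.2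
    · exact absurd h hb.2.2.2
    · exact h
  have hcZ : c ∈ Nb p ∩ Nb q := by simp [hpc, hqc]
  have h2 := card_inter_Z hH hne hn hcZ
  have hsc : s ≠ c := by
    rintro rfl
    exact hs.2.2.1 hpc
  have hnsc : ¬ H.Adj c s := by
    intro hcs
    have hsub : ({a, b, s} : Finset α) ⊆ Nb c ∩ SS H p q := by
      intro v hv
      simp only [mem_insert, mem_singleton] at hv
      simp only [mem_inter, SimpleGraph.mem_neighborFinset, mem_SS]
      rcases hv with rfl | rfl | rfl
      · exact ⟨hac.symm, ha⟩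
      · exact ⟨hbc.symm, hb⟩
      · exact ⟨hcs, hs⟩
    have h3 := card_le_card hsub
    rw [h2, card_insert_of_notMem, card_pair hsb.symm] at h3
    · omega
    · simp only [mem_insert, mem_singleton, not_or]
      exact ⟨hab.ne, hsa.symm⟩
  have hnot : ¬ (H.Adj s a ∧ H.Adj s b) := by
    rintro ⟨h3, h4⟩
    exact hsc (common_unique hH hab h3 h4 hac.symm hbc.symm)
  rcases exists_adj hH hab hac hbc hsa hsb hsc with h | h | h
  · exact Or.inl ⟨h, fun h' => hnot ⟨h, h'⟩⟩
  · exact Or.inr ⟨fun h' => hnot ⟨h', h⟩, h⟩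
  · exact absurd h.symm hnsc

/-- The graph induced on `SS` is a star. -/
theorem star (hH : H.IsSRGWith 15 6 1 3) {p q : α} (hne : p ≠ q) (hn : ¬ H.Adj p q) :
    ∃ r u v w : α, SS H p q = {r, u, v, w} ∧ u ≠ v ∧ u ≠ w ∧ v ≠ w ∧ H.Adj r u ∧ H.Adj r v ∧ H.Adj r w ∧
      ¬ H.Adj u v ∧ ¬ H.Adj u w ∧ ¬ H.Adj v w := by
  have hsum := sum_deg hH hne hn
  have hex : ∃ a ∈ SS H p q, (Nb a ∩ SS H p q).Nonempty := by
    by_contra hcon
    push Not at hcon
    rw [Finset.sum_eq_zero] at hsum
    · omega
    · intro a ha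
      rw [Finset.card_eq_zero]
      exact Finset.not_nonempty_iff_eq_empty.1 (by simpa using hcon a ha)
  obtain ⟨a, ha, b, hb⟩ := hex
  simp only [mem_inter, SimpleGraph.mem_neighborFinset] at hb
  obtain ⟨hab, hbS⟩ := hb
  have hcard : ((SS H p q).erase a |>.erase b).card = 2 := by
    rw [card_erase_of_mem, card_erase_of_mem ha, card_SS hH hne hn]
    simp [hbS, hab.ne.symm]
  obtain ⟨c, d, hcd, hT⟩ := Finset.card_eq_two.1 hcard
  have hc : c ∈ ((SS H p q).erase a |>.erase b) := by rw [hT]; simp
  have hd : d ∈ ((SS H p q).erase a |>.erase b) := by rw [hT]; simp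
  simp only [mem_erase] at hc hd
  obtain ⟨hcb, hca, hcS⟩ := hc
  obtain ⟨hdb, hda, hdS⟩ := hd
  have hS : SS H p q = {a, b, c, d} := by
    ext v
    simp only [mem_insert, mem_singleton]
    constructor
    · intro hv
      by_cases h1 : v = a
      · exact Or.inl h1
      · by_cases h2 : v = b
        · exact Or.inr (Or.inl h2)
        · have : v ∈ ((SS H p q).erase a |>.erase b) := by simp [h1, h2, hv]
          rw [hT, mem_insert, mem_singleton] at this
          exact Or.inr (Or.inr this)
    · rintro (rfl | rfl | rfl | rfl) <;> assumption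
  have Ec := edge_prop hH hne hn ha hbS hcS hab hca hcb
  have Ed := edge_prop hH hne hn ha hbS hdS hab hda hdb
  rcases Ec with ⟨c1, c2⟩ | ⟨c1, c2⟩ <;> rcases Ed with ⟨d1, d2⟩ | ⟨d1, d2⟩
  · -- centre a
    have E := edge_prop hH hne hn hcS ha hdS c1 hcd.symm hda
    have hdc : ¬ H.Adj c d := by
      rcases E with h | h
      · exact absurd d1 h.2
      · exact fun h' => h.1 h'.symm
    refine ⟨a, b, c, d, hS, hcb.symm, hdb.symm, hcd, hab, c1.symm, d1.symm, fun h => c2 h.symm, fun h => d2 h.symm, hdc⟩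
  · -- the four-cycle a b d c
    exfalso
    have E := edge_prop hH hne hn hcS ha hdS c1 hcd.symm hda
    have hdc : H.Adj d c := by
      rcases E with h | h
      · exact h.1
      · exact absurd h.2 d1
    have hsum' := hsum
    rw [hS] at hsum'
    have e1 : (Nb a ∩ {a, b, c, d}) = {b, c} := by
      ext v
      simp only [mem_inter, SimpleGraph.mem_neighborFinset, mem_insert, mem_singleton]
      constructor
      · rintro ⟨h, rfl | rfl | rfl | rfl⟩
        · exact absurd h (H.loopless.irrefl _)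
        · exact Or.inl rfl
        · exact Or.inr rfl
        · exact absurd h.symm d1
      · rintro (rfl | rfl)
        · exact ⟨hab, by simp⟩
        · exact ⟨c1.symm, by simp⟩
    have e2 : (Nb b ∩ {a, b, c, d}) = {a, d} := by
      ext v
      simp only [mem_inter, SimpleGraph.mem_neighborFinset, mem_insert, mem_singleton]
      constructor
      · rintro ⟨h, rfl | rfl | rfl | rfl⟩
        · exact Or.inl rfl
        · exact absurd h (H.loopless.irrefl _)
        · exact absurd h.symm c2
        · exact Or.inr rfl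
      · rintro (rfl | rfl)
        · exact ⟨hab.symm, by simp⟩
        · exact ⟨d2.symm, by simp⟩
    have e3 : (Nb c ∩ {a, b, c, d}) = {a, d} := by
      ext v
      simp only [mem_inter, SimpleGraph.mem_neighborFinset, mem_insert, mem_singleton]
      constructor
      · rintro ⟨h, rfl | rfl | rfl | rfl⟩
        · exact Or.inl rfl
        · exact absurd h c2
        · exact absurd h (H.loopless.irrefl _)
        · exact Or.inr rfl
      · rintro (rfl | rfl)
        · exact ⟨c1, by simp⟩
        · exact ⟨hdc.symm, by simp⟩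
    have e4 : (Nb d ∩ {a, b, c, d}) = {b, c} := by
      ext v
      simp only [mem_inter, SimpleGraph.mem_neighborFinset, mem_insert, mem_singleton]
      constructor
      · rintro ⟨h, rfl | rfl | rfl | rfl⟩
        · exact absurd h d1
        · exact Or.inl rfl
        · exact Or.inr rfl
        · exact absurd h (H.loopless.irrefl _)
      · rintro (rfl | rfl)
        · exact ⟨d2, by simp⟩
        · exact ⟨hdc, by simp⟩
    rw [sum_insert (by simp [hab.ne, hca.symm, hda.symm]), sum_insert (by simp [hcb.symm, hdb.symm]),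
      sum_insert (by simp [hcd]), sum_singleton, e1, e2, e3, e4,
      card_pair hcb.symm, card_pair hda.symm] at hsum'
    omega
  · -- the four-cycle again
    exfalso
    have E := edge_prop hH hne hn hdS ha hcS d1 hcd hca
    have hcd' : H.Adj c d := by
      rcases E with h | h
      · exact h.1
      · exact absurd h.2 c1
    have hsum' := hsum
    rw [hS] at hsum'
    have e1 : (Nb a ∩ {a, b, c, d}) = {b, d} := by
      ext v
      simp only [mem_inter, SimpleGraph.mem_neighborFinset, mem_insert, mem_singleton]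
      constructor
      · rintro ⟨h, rfl | rfl | rfl | rfl⟩
        · exact absurd h (H.loopless.irrefl _)
        · exact Or.inl rfl
        · exact absurd h.symm c1
        · exact Or.inr rfl
      · rintro (rfl | rfl)
        · exact ⟨hab, by simp⟩
        · exact ⟨d1.symm, by simp⟩
    have e2 : (Nb b ∩ {a, b, c, d}) = {a, c} := by
      ext v
      simp only [mem_inter, SimpleGraph.mem_neighborFinset, mem_insert, mem_singleton]
      constructor
      · rintro ⟨h, rfl | rfl | rfl | rfl⟩
        · exact Or.inl rfl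
        · exact absurd h (H.loopless.irrefl _)
        · exact Or.inr rfl
        · exact absurd h.symm d2
      · rintro (rfl | rfl)
        · exact ⟨hab.symm, by simp⟩
        · exact ⟨c2.symm, by simp⟩
    have e3 : (Nb c ∩ {a, b, c, d}) = {b, d} := by
      ext v
      simp only [mem_inter, SimpleGraph.mem_neighborFinset, mem_insert, mem_singleton]
      constructor
      · rintro ⟨h, rfl | rfl | rfl | rfl⟩
        · exact absurd h c1
        · exact Or.inl rfl
        · exact absurd h (H.loopless.irrefl _)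
        · exact Or.inr rfl
      · rintro (rfl | rfl)
        · exact ⟨c2, by simp⟩
        · exact ⟨hcd', by simp⟩
    have e4 : (Nb d ∩ {a, b, c, d}) = {a, c} := by
      ext v
      simp only [mem_inter, SimpleGraph.mem_neighborFinset, mem_insert, mem_singleton]
      constructor
      · rintro ⟨h, rfl | rfl | rfl | rfl⟩
        · exact Or.inl rfl
        · exact absurd h d2
        · exact Or.inr rfl
        · exact absurd h (H.loopless.irrefl _)
      · rintro (rfl | rfl)
        · exact ⟨d1, by simp⟩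
        · exact ⟨hcd'.symm, by simp⟩
    rw [sum_insert (by simp [hab.ne, hca.symm, hda.symm]), sum_insert (by simp [hcb.symm, hdb.symm]),
      sum_insert (by simp [hcd]), sum_singleton, e1, e2, e3, e4,
      card_pair hdb.symm, card_pair hca.symm] at hsum'
    omega
  · -- centre b
    have E := edge_prop hH hne hn hcS hbS hdS c2 hcd.symm hdb
    have hdc : ¬ H.Adj c d := by
      rcases E with h | h
      · exact absurd d2 h.2
      · exact fun h' => h.1 h'.symm
    refine ⟨b, a, c, d, by rw [hS]; ext v; simp only [mem_insert, mem_singleton]; tauto, hca.symm, hda.symm, hcd,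
      hab.symm, c2.symm, d2.symm, fun h => c1 h.symm, fun h => d1 h.symm, hdc⟩

/-- The 5-cocliques. -/
def Ov (H : SimpleGraph α) [DecidableRel H.Adj] : Finset (Finset α) :=
  (powersetCard 5 univ).filter fun O => ∀ u ∈ O, ∀ v ∈ O, ¬ H.Adj u v

theorem mem_Ov {O : Finset α} : O ∈ Ov H ↔ O.card = 5 ∧ ∀ u ∈ O, ∀ v ∈ O, ¬ H.Adj u v := by
  simp [Ov, mem_powersetCard]

/-- A non-edge lies in a unique 5-coclique. -/
theorem existsUnique_Ov (hH : H.IsSRGWith 15 6 1 3) {p q : α} (hne : p ≠ q) (hn : ¬ H.Adj p q) :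
    ∃! O, O ∈ Ov H ∧ p ∈ O ∧ q ∈ O := by
  obtain ⟨r, u, v, w, hS, huv, huw, hvw, hru, hrv, hrw, nuv, nuw, nvw⟩ := star hH hne hn
  have hmem : ∀ t, t ∈ ({r, u, v, w} : Finset α) → t ≠ p ∧ t ≠ q ∧ ¬ H.Adj p t ∧ ¬ H.Adj q t := by
    intro t ht
    rw [← hS, mem_SS] at ht
    exact ht
  have hu := hmem u (by simp)
  have hv := hmem v (by simp)
  have hw := hmem w (by simp)
  refine ⟨{p, q, u, v, w}, ⟨?_, by simp, by simp⟩, ?_⟩
  · rw [mem_Ov]
    refine ⟨?_, ?_⟩
    · rw [card_insert_of_notMem, card_insert_of_notMem, card_insert_of_notMem, card_pair hvw]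
      · simp [huv, huw]
      · simp [hu.2.1.symm, hv.2.1.symm, hw.2.1.symm]
      · simp [hne, hu.1.symm, hv.1.symm, hw.1.symm]
    · have nn : ∀ x, ¬ H.Adj x x := H.loopless.irrefl
      intro x hx y hy
      simp only [mem_insert, mem_singleton] at hx hy
      rcases hx with rfl | rfl | rfl | rfl | rfl <;> rcases hy with rfl | rfl | rfl | rfl | rfl
      all_goals first
        | exact nn _
        | exact hn
        | exact hu.2.2.1
        | exact hu.2.2.2
        | exact hv.2.2.1
        | exact hv.2.2.2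
        | exact hw.2.2.1
        | exact hw.2.2.2
        | exact nuv
        | exact nuw
        | exact nvw
        | exact fun h => hn h.symm
        | exact fun h => hu.2.2.1 h.symm
        | exact fun h => hu.2.2.2 h.symm
        | exact fun h => hv.2.2.1 h.symm
        | exact fun h => hv.2.2.2 h.symm
        | exact fun h => hw.2.2.1 h.symm
        | exact fun h => hw.2.2.2 h.symm
        | exact fun h => nuv h.symm
        | exact fun h => nuw h.symm
        | exact fun h => nvw h.symm
  · rintro O ⟨hO, hp, hq⟩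
    rw [mem_Ov] at hO
    obtain ⟨hc, hcl⟩ := hO
    have hcT : ((O.erase p).erase q).card = 3 := by
      rw [card_erase_of_mem (by simp [hne.symm, hq]), card_erase_of_mem hp, hc]
    have hsub : (O.erase p).erase q ⊆ {r, u, v, w} := by
      intro t ht
      simp only [mem_erase] at ht
      rw [← hS, mem_SS]
      exact ⟨ht.2.1, ht.1, hcl p hp t ht.2.2, hcl q hq t ht.2.2⟩
    have hnr : r ∉ (O.erase p).erase q := by
      intro hr
      -- some element other than `r`
      have : 1 < ((O.erase p).erase q).card := by omega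
      obtain ⟨t, ht, htr⟩ := Finset.exists_mem_ne this r
      have ht' := hsub ht
      simp only [mem_insert, mem_singleton] at ht'
      simp only [mem_erase] at ht hr
      rcases ht' with rfl | rfl | rfl | rfl
      · exact htr rfl
      · exact hcl r hr.2.2 _ ht.2.2 hru
      · exact hcl r hr.2.2 _ ht.2.2 hrv
      · exact hcl r hr.2.2 _ ht.2.2 hrw
    have hsub' : (O.erase p).erase q ⊆ {u, v, w} := by
      intro t ht
      have ht' := hsub ht
      simp only [mem_insert, mem_singleton] at ht' ⊢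
      rcases ht' with rfl | h
      · exact absurd ht hnr
      · exact h
    have heq : (O.erase p).erase q = {u, v, w} := by
      apply Finset.eq_of_subset_of_card_le hsub'
      rw [hcT, card_insert_of_notMem (by simp [huv, huw]), card_pair hvw]
    ext t
    simp only [mem_insert, mem_singleton]
    constructor
    · intro ht
      by_cases h1 : t = p
      · exact Or.inl h1
      · by_cases h2 : t = q
        · exact Or.inr (Or.inl h2)
        · have : t ∈ (O.erase p).erase q := by simp [h1, h2, ht]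
          rw [heq] at this
          simp only [mem_insert, mem_singleton] at this
          exact Or.inr (Or.inr this)
    · have hh : t ∈ ({u, v, w} : Finset α) → t ∈ O := by
        intro ht
        rw [← heq] at ht
        simp only [mem_erase] at ht
        exact ht.2.2
      rintro (rfl | rfl | rfl | rfl | rfl)
      · exact hp
      · exact hq
      · exact hh (by simp)
      · exact hh (by simp)
      · exact hh (by simp)

theorem card_nonnbr (hH : H.IsSRGWith 15 6 1 3) (p : α) :
    (univ.filter fun q => q ≠ p ∧ ¬ H.Adj p q).card = 8 := by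
  have h1 : (univ.filter fun q => q ≠ p ∧ ¬ H.Adj p q) = univ \ insert p (Nb p) := by
    ext q
    simp only [mem_filter, mem_univ, true_and, mem_sdiff, mem_insert, SimpleGraph.mem_neighborFinset, not_or]
  rw [h1, card_sdiff_of_subset (subset_univ _), card_univ, hH.card, card_insert_of_notMem (by simp), card_Nb hH]

/-- A vertex lies in exactly two 5-cocliques. -/
theorem card_Ov_mem (hH : H.IsSRGWith 15 6 1 3) (p : α) : ((Ov H).filter (p ∈ ·)).card = 2 := by
  have h1 : ∑ O ∈ (Ov H).filter (p ∈ ·), (O.erase p).card =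
      ∑ q ∈ univ.filter (fun q => q ≠ p ∧ ¬ H.Adj p q), (((Ov H).filter (p ∈ ·)).filter (q ∈ ·)).card := by
    simp only [Finset.card_eq_sum_ones]
    apply Finset.sum_comm'
    intro O q
    simp only [mem_filter, mem_erase, mem_univ, true_and, mem_Ov]
    constructor
    · rintro ⟨⟨h1, h2⟩, h3, h4⟩
      exact ⟨⟨⟨h1, h2⟩, h4⟩, h3, h1.2 p h2 q h4⟩
    · rintro ⟨⟨⟨h1, h2⟩, h4⟩, h3, h5⟩
      exact ⟨⟨h1, h2⟩, h3, h4⟩
  have h2 : ∀ O ∈ (Ov H).filter (p ∈ ·), (O.erase p).card = 4 := by
    intro O hO
    simp only [mem_filter, mem_Ov] at hO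
    rw [card_erase_of_mem hO.2, hO.1.1]
  have h3 : ∀ q ∈ univ.filter (fun q => q ≠ p ∧ ¬ H.Adj p q), (((Ov H).filter (p ∈ ·)).filter (q ∈ ·)).card = 1 := by
    intro q hq
    simp only [mem_filter, mem_univ, true_and] at hq
    obtain ⟨O, ⟨hO1, hO2, hO3⟩, hO4⟩ := existsUnique_Ov hH hq.1.symm hq.2
    rw [Finset.card_eq_one]
    refine ⟨O, ?_⟩
    ext O'
    simp only [mem_filter, mem_singleton]
    constructor
    · rintro ⟨⟨h4, h5⟩, h6⟩
      exact hO4 O' ⟨h4, h5, h6⟩
    · rintro rfl
      exact ⟨⟨hO1, hO2⟩, hO3⟩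
  rw [Finset.sum_congr rfl h2, Finset.sum_congr rfl h3] at h1
  simp only [Finset.sum_const, smul_eq_mul] at h1
  rw [card_nonnbr hH] at h1
  omega

/-- There are exactly six 5-cocliques. -/
theorem card_Ov (hH : H.IsSRGWith 15 6 1 3) : (Ov H).card = 6 := by
  have h1 : ∑ O ∈ Ov H, O.card = ∑ p : α, ((Ov H).filter (p ∈ ·)).card := by
    simp only [Finset.card_eq_sum_ones]
    apply Finset.sum_comm'
    intro O q
    simp
  have h2 : ∀ O ∈ Ov H, O.card = 5 := fun O hO => (mem_Ov.1 hO).1
  rw [Finset.sum_congr rfl h2, Finset.sum_congr rfl (fun p _ => card_Ov_mem hH p)] at h1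
  simp only [Finset.sum_const, smul_eq_mul, card_univ, hH.card] at h1
  omega

end Cfsg.Agent.Lib.Srg77.GQ
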