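import Cfsg.Agent.Lib.Srg77.Local
import Cfsg.Agent.Lib.Srg77.GQ

/-!
# The graph on the 15 classes is `SRG(15, 6, 1, 3)`
-/

set_option autoImplicit false
set_option linter.unusedSectionVars false

namespace Cfsg.Agent.Lib.Srg77

open Finset

variable {V : Type*} [Fintype V] [DecidableEq V] {G : SimpleGraph V} [DecidableRel G.Adj]

/-- The type of classes. -/
abbrev Kt (G : SimpleGraph V) [DecidableRel G.Adj] (x : V) : Type _ := {b : V → ℤ // b ∈ Kx G x}

variable {x : V}

/-- A representative of a class. -/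
noncomputable def rep (k : Kt G x) : V := (mem_image.1 k.2).choose

theorem rep_mem (k : Kt G x) : rep k ∈ Lam G x := (mem_image.1 k.2).choose_spec.1

theorem Dv_rep (k : Kt G x) : Dv G x (rep k) = k.1 := (mem_image.1 k.2).choose_spec.2

/-- The value of `D` on two classes. -/
noncomputable def gv (d e : Kt G x) : ℤ := d.1 (rep e)

theorem gv_of (hG : G.IsSRGWith 77 16 0 4) {y z : V} (hy : y ∈ Lam G x) (hz : z ∈ Lam G x) {d e : Kt G x}
    (hd : d.1 = Dv G x y) (he : e.1 = Dv G x z) : gv d e = Dv G x y z := by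
  rw [gv, hd, Dv_symm hG hy (rep_mem e), Dv_rep, he, Dv_symm hG hz hy]

theorem gv_eq (hG : G.IsSRGWith 77 16 0 4) (d e : Kt G x) : gv d e = Dv G x (rep d) (rep e) :=
  gv_of hG (rep_mem d) (rep_mem e) (Dv_rep d).symm (Dv_rep e).symm

theorem gv_symm (hG : G.IsSRGWith 77 16 0 4) (d e : Kt G x) : gv d e = gv e d := by
  rw [gv_eq hG, gv_eq hG, Dv_symm hG (rep_mem d) (rep_mem e)]

theorem gv_self (hG : G.IsSRGWith 77 16 0 4) (d : Kt G x) : gv d d = 44 := by
  rw [gv_eq hG, Dv_self hG (rep_mem d)]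

theorem gv_tri (hG : G.IsSRGWith 77 16 0 4) (d e : Kt G x) : gv d e = 44 ∨ gv d e = 11 ∨ gv d e = -22 := by
  rw [gv_eq hG]
  exact Dv_tri hG (rep_mem d) (rep_mem e)

theorem gv_44 (hG : G.IsSRGWith 77 16 0 4) {d e : Kt G x} (h : gv d e = 44) : d = e := by
  rw [gv_eq hG] at h
  apply Subtype.ext
  rw [← Dv_rep d, ← Dv_rep e]
  exact ((Dv_eq_iff hG (rep_mem d) (rep_mem e)).2 h).symm

theorem gv_sum (hG : G.IsSRGWith 77 16 0 4) (d : Kt G x) : ∑ k : Kt G x, gv d k = 0 := by
  have h1 : ∀ k : Kt G x, gv d k = k.1 (rep d) := fun k => gv_symm hG d k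
  simp only [h1]
  rw [Finset.sum_coe_sort (Kx G x) (fun b : V → ℤ => b (rep d))]
  have h2 := sum_Lam_fiber hG (x := x) (fun b : V → ℤ => b (rep d))
  have h3 : ∑ a ∈ Lam G x, Dv G x a (rep d) = ∑ a ∈ Lam G x, Dv G x (rep d) a :=
    Finset.sum_congr rfl fun a ha => Dv_symm hG ha (rep_mem d)
  rw [h3, sum_Lam_Dv hG (rep_mem d)] at h2
  omega

theorem gv_inner (hG : G.IsSRGWith 77 16 0 4) (d e : Kt G x) :
    ∑ k : Kt G x, gv d k * gv e k = 132 * gv d e := by
  have h1 : ∀ (d k : Kt G x), gv d k = k.1 (rep d) := fun d k => gv_symm hG d k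
  simp only [h1 d, h1 e]
  rw [Finset.sum_coe_sort (Kx G x) (fun b : V → ℤ => b (rep d) * b (rep e))]
  have h2 := sum_Lam_fiber hG (x := x) (fun b : V → ℤ => b (rep d) * b (rep e))
  have h3 : ∑ a ∈ Lam G x, Dv G x a (rep d) * Dv G x a (rep e) = ∑ a ∈ Lam G x, Dv G x (rep d) a * Dv G x (rep e) a :=
    Finset.sum_congr rfl fun a ha => by rw [Dv_symm hG ha (rep_mem d), Dv_symm hG ha (rep_mem e)]
  have h4 : ∑ a ∈ Lam G x, Dv G x (rep d) a * Dv G x (rep e) a = ∑ a, Dv G x (rep d) a * Dv G x (rep e) a :=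
    Finset.sum_subset (subset_univ _) (fun a _ ha => by rw [Dv_off hG (rep_mem d) ha]; ring)
  rw [h3, h4, Dv_inner hG (rep_mem e)] at h2
  have h5 : Dv G x (rep e) (rep d) = e.1 (rep d) := by rw [Dv_rep]
  rw [h5] at h2
  have h6 : e.1 (rep d) = d.1 (rep e) := gv_symm hG e d
  rw [← h1 d e]
  rw [h1 d e]
  omega

/-- The graph on the classes. -/
def T2 (hG : G.IsSRGWith 77 16 0 4) (x : V) : SimpleGraph (Kt G x) where
  Adj d e := gv d e = -22
  symm := ⟨fun d e h => by
    show gv e d = -22
    rw [gv_symm hG]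
    exact h⟩
  loopless := ⟨fun d h => by
    have h1 := gv_self hG d
    have h2 : gv d d = -22 := h
    omega⟩

noncomputable instance (hG : G.IsSRGWith 77 16 0 4) (x : V) : DecidableRel (T2 hG x).Adj := Classical.decRel _

theorem T2_adj (hG : G.IsSRGWith 77 16 0 4) {d e : Kt G x} : (T2 hG x).Adj d e ↔ gv d e = -22 := Iff.rfl

theorem card_Kt (hG : G.IsSRGWith 77 16 0 4) (x : V) : Fintype.card (Kt G x) = 15 := by
  rw [Fintype.card_coe, card_Kx hG]

/-- Common neighbours of two distinct classes. -/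
theorem card_common (hG : G.IsSRGWith 77 16 0 4) {d e : Kt G x} (hde : d ≠ e) :
    (1089 : ℤ) * ((univ.filter fun k => gv d k = -22 ∧ gv e k = -22).card : ℤ) = 66 * gv d e + 2541 := by
  have hpt : ∀ k : Kt G x, (gv d k - 11) * (gv e k - 11) =
      (if gv d k = -22 ∧ gv e k = -22 then 1089 else 0) + (if k = d then 33 * (gv d e - 11) else 0) +
        (if k = e then 33 * (gv d e - 11) else 0) := by
    intro k
    by_cases h1 : k = d
    · subst h1
      rw [gv_self hG, gv_symm hG e k]
      simp [hde]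
    · by_cases h2 : k = e
      · subst h2
        rw [gv_self hG]
        simp [h1]
        omega
      · have h3 : gv d k ≠ 44 := fun h => h1 (gv_44 hG h).symm
        have h4 : gv e k ≠ 44 := fun h => h2 (gv_44 hG h).symm
        rcases gv_tri hG d k with h5 | h5 | h5
        · exact absurd h5 h3
        · rcases gv_tri hG e k with h6 | h6 | h6
          · exact absurd h6 h4
          · simp [h1, h2, h5, h6]
          · simp [h1, h2, h5, h6]
        · rcases gv_tri hG e k with h6 | h6 | h6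
          · exact absurd h6 h4
          · simp [h1, h2, h5, h6]
          · simp [h1, h2, h5, h6]
  have h1 := Finset.sum_congr (rfl : (univ : Finset (Kt G x)) = univ) (fun k _ => hpt k)
  rw [Finset.sum_add_distrib, Finset.sum_add_distrib, Finset.sum_ite_eq', Finset.sum_ite_eq', Finset.sum_ite] at h1
  simp only [mem_univ, if_true, Finset.sum_const, nsmul_eq_mul, Finset.sum_const_zero, add_zero] at h1
  have h2 : ∑ k : Kt G x, (gv d k - 11) * (gv e k - 11) =
      ∑ k : Kt G x, gv d k * gv e k - 11 * ∑ k : Kt G x, gv d k - 11 * ∑ k : Kt G x, gv e k + 121 * 15 := by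
    have h3 : ((Fintype.card (Kt G x) : ℕ) : ℤ) = 15 := by rw [card_Kt hG]; rfl
    rw [← h3, ← Finset.card_univ, Finset.mul_sum, Finset.mul_sum]
    have h4 : (121 : ℤ) * ((univ : Finset (Kt G x)).card : ℤ) = ∑ _k : Kt G x, (121 : ℤ) := by
      rw [Finset.sum_const, nsmul_eq_mul]; ring
    rw [h4, ← Finset.sum_sub_distrib, ← Finset.sum_sub_distrib, ← Finset.sum_add_distrib]
    exact Finset.sum_congr rfl fun _ _ => by ring
  rw [h2, gv_inner hG, gv_sum hG, gv_sum hG] at h1
  linarith

theorem T2_srg (hG : G.IsSRGWith 77 16 0 4) (x : V) : (T2 hG x).IsSRGWith 15 6 1 3 := by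
  refine ⟨card_Kt hG x, ?_, ?_, ?_⟩
  · intro d
    rw [← SimpleGraph.card_neighborFinset_eq_degree]
    have h0 : (T2 hG x).neighborFinset d = univ.filter fun k => gv d k = -22 := by
      ext k
      simp [T2_adj]
    rw [h0]
    have h1 : ∑ k : Kt G x, (if gv d k = -22 then (2178 : ℤ) else 0) =
        ∑ k : Kt G x, (gv d k * gv d k - 55 * gv d k + 484) := by
      apply Finset.sum_congr rfl
      intro k _
      rcases gv_tri hG d k with h | h | h <;> rw [h] <;> norm_num
    rw [Finset.sum_ite, Finset.sum_add_distrib, Finset.sum_sub_distrib, ← Finset.mul_sum, gv_inner hG, gv_sum hG,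
      gv_self hG] at h1
    simp only [Finset.sum_const, nsmul_eq_mul, Finset.sum_const_zero, add_zero, Finset.card_univ, card_Kt hG] at h1
    push_cast at h1
    omega
  · intro d e hde
    rw [← Set.toFinset_card]
    have h0 : (SimpleGraph.commonNeighbors (T2 hG x) d e).toFinset = univ.filter fun k => gv d k = -22 ∧ gv e k = -22 := by
      ext k
      simp [SimpleGraph.mem_commonNeighbors, T2_adj]
    rw [h0]
    have h1 := card_common hG hde.ne
    have h2 : gv d e = -22 := hde
    rw [h2] at h1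
    omega
  · intro d e hne hde
    rw [← Set.toFinset_card]
    have h0 : (SimpleGraph.commonNeighbors (T2 hG x) d e).toFinset = univ.filter fun k => gv d k = -22 ∧ gv e k = -22 := by
      ext k
      simp [SimpleGraph.mem_commonNeighbors, T2_adj]
    rw [h0]
    have h1 := card_common hG hne
    have h2 : gv d e = 11 := by
      rcases gv_tri hG d e with h | h | h
      · exact absurd (gv_44 hG h) hne
      · exact h
      · exact absurd h hde
    rw [h2] at h1
    omega

end Cfsg.Agent.Lib.Srg77
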