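import Cfsg.Agent.Lib.Srg77.Classes

/-!
# The cocliques of size 21 through a vertex
-/

set_option autoImplicit false
set_option linter.unusedSectionVars false

namespace Cfsg.Agent.Lib.Srg77

open Finset

variable {V : Type*} [Fintype V] [DecidableEq V] {G : SimpleGraph V} [DecidableRel G.Adj]

local notation "N" => G.neighborFinset

/-- The cocliques of size 21. -/
def Coc (G : SimpleGraph V) [DecidableRel G.Adj] : Finset (Finset V) :=
  (powersetCard 21 univ).filter fun C => ∀ u ∈ C, ∀ v ∈ C, ¬ G.Adj u v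

theorem mem_Coc {C : Finset V} : C ∈ Coc G ↔ C.card = 21 ∧ ∀ u ∈ C, ∀ v ∈ C, ¬ G.Adj u v := by
  simp [Coc, mem_powersetCard]

/-- The indicator function. -/
def chi (C : Finset V) (a : V) : ℤ := if a ∈ C then 1 else 0

theorem chi_mul (C : Finset V) (f : V → ℤ) : ∑ a, chi C a * f a = ∑ a ∈ C, f a := by
  simp only [chi, ite_mul, one_mul, zero_mul]
  rw [Finset.sum_ite_mem, Finset.univ_inter]

theorem sum_chi (C : Finset V) : ∑ a, chi C a = (C.card : ℤ) := by
  have h := chi_mul C (fun _ => 1)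
  simpa using h

theorem Aop_chi_mem {C : Finset V} (hC : C ∈ Coc G) {a : V} (ha : a ∈ C) : Aop G (chi C) a = 0 := by
  apply Finset.sum_eq_zero
  intro b hb
  simp only [chi]
  rw [if_neg]
  intro hb'
  exact (mem_Coc.1 hC).2 a ha b hb' (by simpa using hb)

theorem chi_sq (C : Finset V) (a : V) : chi C a * chi C a = chi C a := by
  by_cases h : a ∈ C <;> simp [chi, h]

theorem Aop_chi_out (hG : G.IsSRGWith 77 16 0 4) {C : Finset V} (hC : C ∈ Coc G) {a : V} (ha : a ∉ C) :
    Aop G (chi C) a = 6 := by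
  have hcard := (mem_Coc.1 hC).1
  have hs : ∑ a, chi C a = 21 := by rw [sum_chi, hcard]; rfl
  have h0 : ∀ b, chi C b * Aop G (chi C) b = 0 := by
    intro b
    by_cases hb : b ∈ C
    · rw [Aop_chi_mem hC hb, mul_zero]
    · simp [chi, hb]
  have h1 : ∑ b, Aop G (chi C) b = 336 := by rw [Aop_sum hG, hs]; rfl
  have h2 : ∑ b, Aop G (chi C) b * Aop G (chi C) b = 2016 := by
    rw [← Aop_symm (G := G) (chi C) (Aop G (chi C))]
    have : ∀ b, chi C b * Aop G (Aop G (chi C)) b = 12 * chi C b - 4 * 0 + 84 * chi C b := by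
      intro b
      rw [Aop_Aop hG, hs]
      have h := h0 b
      have h' := chi_sq C b
      linear_combination 12 * h' - 4 * h
    simp only [this, Finset.sum_add_distrib, Finset.sum_sub_distrib, ← Finset.mul_sum, hs]
    simp
  have hpt : ∀ b, (Aop G (chi C) b - 6 + 6 * chi C b) ^ 2 =
      Aop G (chi C) b * Aop G (chi C) b + 36 - 36 * chi C b - 12 * Aop G (chi C) b := by
    intro b
    have h := h0 b
    have h' := chi_sq C b
    linear_combination 12 * h + 36 * h'
  have h3 : ∑ b, (Aop G (chi C) b - 6 + 6 * chi C b) ^ 2 = 0 := by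
    simp only [hpt]
    rw [Finset.sum_sub_distrib, Finset.sum_sub_distrib, Finset.sum_add_distrib, h2, ← Finset.mul_sum,
      ← Finset.mul_sum, h1, hs]
    simp [hG.card]
  have h4 := (Finset.sum_eq_zero_iff_of_nonneg (fun _ _ => sq_nonneg _)).1 h3 a (mem_univ a)
  have h5 : Aop G (chi C) a - 6 + 6 * chi C a = 0 := by simpa using h4
  simp only [chi, ha, if_false] at h5
  linarith

theorem Mop_chi (hG : G.IsSRGWith 77 16 0 4) {C : Finset V} (hC : C ∈ Coc G) (a : V) :
    Mop G (chi C) a = 88 * chi C a - 24 := by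
  have hs : ∑ a, chi C a = 21 := by rw [sum_chi, (mem_Coc.1 hC).1]; rfl
  rw [Mop, hs]
  by_cases ha : a ∈ C
  · rw [Aop_chi_mem hC ha]
    simp [chi, ha]
  · rw [Aop_chi_out hG hC ha]
    simp [chi, ha]

theorem sum_Dv_C (hG : G.IsSRGWith 77 16 0 4) {C : Finset V} (hC : C ∈ Coc G) {x y : V} (hx : x ∈ C)
    (hy : y ∈ Lam G x) : ∑ a ∈ C, Dv G x y a = 528 * chi C y - 176 := by
  rw [← chi_mul, Dv, Mop_symm]
  simp only [Mop_chi hG hC, sub_mul, Finset.sum_sub_distrib, mul_assoc, ← Finset.mul_sum]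
  have h1 : ∑ a, chi C a * Wv G x y a = 6 * chi C y + 4 := by
    have h := sum_mul_Wv (G := G) x y (chi C)
    have h2 : ∑ u ∈ BB G x y, chi C u = 0 := by
      apply Finset.sum_eq_zero
      intro u hu
      have hu' := (mem_BB.1 hu).2
      simp only [chi]
      rw [if_neg]
      intro huC
      exact (mem_Coc.1 hC).2 x hx u huC hu'
    rw [h2] at h
    have h3 : chi C x = 1 := by simp [chi, hx]
    rw [h3] at h
    simp only [mul_comm (chi C _)]
    rw [h]
    ring
  rw [h1, sum_Wv hG hy]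
  ring

theorem class_eq (hG : G.IsSRGWith 77 16 0 4) {C : Finset V} (hC : C ∈ Coc G) {x y z : V} (hx : x ∈ C)
    (hy : y ∈ Lam G x) (hz : z ∈ Lam G x) (h : Dv G x y = Dv G x z) : y ∈ C ↔ z ∈ C := by
  have h1 := sum_Dv_C hG hC hx hy
  have h2 := sum_Dv_C hG hC hx hz
  rw [h, h2] at h1
  have h3 : chi C y = chi C z := by linarith
  by_cases hy' : y ∈ C <;> by_cases hz' : z ∈ C <;> simp [chi, hy', hz'] at h3 ⊢

/-- The vertex `x` together with the fibres of `D x` over a set of classes. -/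
noncomputable def Ph (G : SimpleGraph V) [DecidableRel G.Adj] (x : V) (O : Finset (Kt G x)) : Finset V :=
  (Lam G x).filter fun a => ∃ k ∈ O, k.1 = Dv G x a

theorem mem_Ph {x : V} {O : Finset (Kt G x)} {a : V} :
    a ∈ Ph G x O ↔ a ∈ Lam G x ∧ ∃ k ∈ O, k.1 = Dv G x a := by
  simp [Ph]

/-- The class of a non-neighbour. -/
def kap (G : SimpleGraph V) [DecidableRel G.Adj] {x y : V} (hy : y ∈ Lam G x) : Kt G x :=
  ⟨Dv G x y, mem_image_of_mem _ hy⟩

theorem mem_Ph_iff {x : V} {O : Finset (Kt G x)} {a : V} (ha : a ∈ Lam G x) :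
    a ∈ Ph G x O ↔ kap G ha ∈ O := by
  rw [mem_Ph]
  constructor
  · rintro ⟨_, k, hk, hk'⟩
    have : kap G ha = k := Subtype.ext hk'.symm
    rwa [this]
  · intro h
    exact ⟨ha, _, h, rfl⟩

theorem rep_mem_Ph {x : V} {O : Finset (Kt G x)} {k : Kt G x} : rep k ∈ Ph G x O ↔ k ∈ O := by
  rw [mem_Ph_iff (rep_mem k)]
  have : kap G (rep_mem k) = k := Subtype.ext (Dv_rep k)
  rw [this]

theorem sum_Ph (hG : G.IsSRGWith 77 16 0 4) {x : V} (O : Finset (Kt G x)) (f : Kt G x → ℤ) :
    ∑ a ∈ (Lam G x).attach.filter (fun a => kap G a.2 ∈ O), f (kap G a.2) = 4 * ∑ k ∈ O, f k := by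
  rw [← Finset.sum_fiberwise_of_maps_to (t := O) (g := fun a : {a // a ∈ Lam G x} => kap G a.2)
    (fun a ha => (mem_filter.1 ha).2), Finset.mul_sum]
  apply Finset.sum_congr rfl
  intro k hk
  have h1 : ∀ a ∈ ((Lam G x).attach.filter (fun a => kap G a.2 ∈ O)).filter
      (fun a : {a // a ∈ Lam G x} => kap G a.2 = k), f (kap G a.2) = f k := by
    intro a ha
    rw [(mem_filter.1 ha).2]
  rw [Finset.sum_congr rfl h1, Finset.sum_const, nsmul_eq_mul]
  have h2 : (((Lam G x).attach.filter (fun a => kap G a.2 ∈ O)).filter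
      (fun a : {a // a ∈ Lam G x} => kap G a.2 = k)).card = 4 := by
    have h3 := card_fiber hG k.2
    rw [← h3]
    apply Finset.card_bij (fun a _ => a.1)
    · intro a ha
      have ha' := (mem_filter.1 ha).2
      rw [mem_filter]
      refine ⟨a.2, ?_⟩
      exact congrArg Subtype.val ha'
    · intro a _ b _ hab
      exact Subtype.ext hab
    · intro b hb
      rw [mem_filter] at hb
      have : kap G hb.1 = k := Subtype.ext hb.2
      refine ⟨⟨b, hb.1⟩, ?_, rfl⟩
      rw [mem_filter, mem_filter]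
      refine ⟨⟨mem_attach _ _, ?_⟩, this⟩
      simpa [this] using hk
  rw [h2]
  norm_num

theorem sum_Ph' (hG : G.IsSRGWith 77 16 0 4) {x : V} (O : Finset (Kt G x)) (f : Kt G x → ℤ) (g : V → ℤ)
    (hg : ∀ a (ha : a ∈ Lam G x), g a = f (kap G ha)) :
    ∑ a ∈ Ph G x O, g a = 4 * ∑ k ∈ O, f k := by
  rw [← sum_Ph hG O f]
  symm
  apply Finset.sum_bij (fun a _ => a.1)
  · intro a ha
    rw [mem_filter] at ha
    exact (mem_Ph_iff a.2).2 ha.2
  · intro a _ b _ h
    exact Subtype.ext h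
  · intro b hb
    have hL := (mem_Ph.1 hb).1
    exact ⟨⟨b, hL⟩, by rw [mem_filter]; exact ⟨mem_attach _ _, (mem_Ph_iff hL).1 hb⟩, rfl⟩
  · intro a _
    exact (hg a.1 a.2).symm

theorem card_Ph (hG : G.IsSRGWith 77 16 0 4) {x : V} (O : Finset (Kt G x)) :
    (Ph G x O).card = 4 * O.card := by
  have h := sum_Ph' hG O (fun _ => 1) (fun _ => 1) (fun _ _ => rfl)
  simp only [Finset.sum_const, nsmul_eq_mul, mul_one] at h
  exact_mod_cast h

theorem x_notMem_Ph {x : V} (O : Finset (Kt G x)) : x ∉ Ph G x O := by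
  intro h
  exact (mem_Lam.1 (mem_Ph.1 h).1).1 rfl

theorem Ph_coc (hG : G.IsSRGWith 77 16 0 4) {x : V} {O : Finset (Kt G x)} (hO : O ∈ GQ.Ov (T2 hG x)) :
    insert x (Ph G x O) ∈ Coc G := by
  rw [GQ.mem_Ov] at hO
  rw [mem_Coc]
  constructor
  · rw [card_insert_of_notMem (x_notMem_Ph O), card_Ph hG, hO.1]
  · intro u hu v hv h
    rw [mem_insert] at hu hv
    rcases hu with rfl | hu
    · rcases hv with rfl | hv
      · exact G.irrefl h
      · exact (mem_Lam.1 (mem_Ph.1 hv).1).2 h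
    · rcases hv with rfl | hv
      · exact (mem_Lam.1 (mem_Ph.1 hu).1).2 h.symm
      · obtain ⟨hu1, k, hk, hk'⟩ := mem_Ph.1 hu
        obtain ⟨hv1, l, hl, hl'⟩ := mem_Ph.1 hv
        have h1 : gv l k = Dv G x v u := gv_of hG hv1 hu1 hl' hk'
        rw [Dv_adj hG hv1 hu1 h] at h1
        exact hO.2 l hl k hk h1

theorem exists_Ov (hG : G.IsSRGWith 77 16 0 4) {C : Finset V} (hC : C ∈ Coc G) {x : V} (hx : x ∈ C) :
    ∃ O ∈ GQ.Ov (T2 hG x), C = insert x (Ph G x O) := by
  classical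
  have hcc := mem_Coc.1 hC
  set O : Finset (Kt G x) := univ.filter fun k => rep k ∈ C with hOdef
  have hO : ∀ k, k ∈ O ↔ rep k ∈ C := by
    intro k
    simp [hOdef]
  have hkey : ∀ a (ha : a ∈ Lam G x), a ∈ C ↔ kap G ha ∈ O := by
    intro a ha
    rw [hO]
    exact class_eq hG hC hx ha (rep_mem _) (Dv_rep (kap G ha)).symm
  have hCeq : C = insert x (Ph G x O) := by
    ext a
    rw [mem_insert]
    constructor
    · intro ha
      by_cases h1 : a = x
      · exact Or.inl h1
      · right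
        have hL : a ∈ Lam G x := mem_Lam.2 ⟨h1, hcc.2 x hx a ha⟩
        exact (mem_Ph_iff hL).2 ((hkey a hL).1 ha)
    · rintro (rfl | h)
      · exact hx
      · have hL := (mem_Ph.1 h).1
        exact (hkey a hL).2 ((mem_Ph_iff hL).1 h)
  have hcard : O.card = 5 := by
    have h1 := hcc.1
    rw [hCeq, card_insert_of_notMem (x_notMem_Ph O), card_Ph hG] at h1
    omega
  have hsum : ∀ d ∈ O, ∑ k ∈ O, gv d k = 88 := by
    intro d hd
    have h1 := sum_Dv_C hG hC hx (rep_mem d)
    have h2 : chi C (rep d) = 1 := by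
      simp [chi, (hO d).1 hd]
    rw [h2] at h1
    conv_lhs at h1 => rw [hCeq]
    rw [sum_insert (x_notMem_Ph O), Dv_x hG (rep_mem d), zero_add,
      sum_Ph' hG O (fun k => gv d k) (fun a => Dv G x (rep d) a)
        (fun a ha => (gv_of hG (rep_mem d) ha (Dv_rep d).symm rfl).symm)] at h1
    linarith
  refine ⟨O, ?_, hCeq⟩
  rw [GQ.mem_Ov]
  refine ⟨hcard, ?_⟩
  intro d hd e he hadj
  have hde : gv d e = -22 := hadj
  have hle : ∀ k ∈ O, gv d k ≤ 11 + (if k = d then 33 else 0) - (if k = e then 33 else 0) := by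
    intro k _
    have hne : e ≠ d := by
      rintro rfl
      rw [gv_self hG] at hde
      norm_num at hde
    by_cases h1 : k = d
    · subst h1
      rw [gv_self hG]
      simp [hne.symm]
    · by_cases h2 : k = e
      · subst h2
        simp [h1, hde]
      · simp only [h1, h2, if_false]
        rcases gv_tri hG d k with h3 | h3 | h3
        · exact absurd (gv_44 hG h3).symm h1
        · linarith
        · linarith
  have h1 := Finset.sum_le_sum hle
  rw [hsum d hd, Finset.sum_sub_distrib, Finset.sum_add_distrib, Finset.sum_const, hcard,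
    Finset.sum_ite_eq' O d, Finset.sum_ite_eq' O e, if_pos hd, if_pos he] at h1
  norm_num at h1

theorem Ph_inj {x : V} : Function.Injective (fun O : Finset (Kt G x) => insert x (Ph G x O)) := by
  intro O O' h
  have key : ∀ (O : Finset (Kt G x)) (k : Kt G x), rep k ∈ insert x (Ph G x O) ↔ k ∈ O := by
    intro O k
    rw [mem_insert, rep_mem_Ph]
    constructor
    · rintro (h | h)
      · exact absurd h (mem_Lam.1 (rep_mem k)).1
      · exact h
    · exact Or.inr
  ext k
  rw [← key O k, ← key O' k]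
  simp only at h
  rw [h]

theorem filter_eq_image (hG : G.IsSRGWith 77 16 0 4) (x : V) :
    (Coc G).filter (x ∈ ·) = (GQ.Ov (T2 hG x)).image (fun O => insert x (Ph G x O)) := by
  ext C
  rw [mem_filter, mem_image]
  constructor
  · rintro ⟨hC, hx⟩
    obtain ⟨O, hO, rfl⟩ := exists_Ov hG hC hx
    exact ⟨O, hO, rfl⟩
  · rintro ⟨O, hO, rfl⟩
    exact ⟨Ph_coc hG hO, mem_insert_self _ _⟩

/-- Six cocliques of size 21 pass through each vertex. -/
theorem card_Coc_mem (hG : G.IsSRGWith 77 16 0 4) (x : V) : ((Coc G).filter (x ∈ ·)).card = 6 := by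
  rw [filter_eq_image hG, card_image_of_injective _ Ph_inj, GQ.card_Ov (T2_srg hG x)]

/-- Two cocliques of size 21 pass through each non-edge. -/
theorem card_Coc_mem2 (hG : G.IsSRGWith 77 16 0 4) {x y : V} (hy : y ∈ Lam G x) :
    (((Coc G).filter (x ∈ ·)).filter (y ∈ ·)).card = 2 := by
  rw [filter_eq_image hG, ← GQ.card_Ov_mem (T2_srg hG x) (kap G hy)]
  have h1 : ((GQ.Ov (T2 hG x)).image (fun O => insert x (Ph G x O))).filter (y ∈ ·) =
      ((GQ.Ov (T2 hG x)).filter (kap G hy ∈ ·)).image (fun O => insert x (Ph G x O)) := by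
    ext C
    simp only [mem_filter, mem_image]
    constructor
    · rintro ⟨⟨O, hO, rfl⟩, h⟩
      refine ⟨O, ⟨hO, ?_⟩, rfl⟩
      rw [mem_insert] at h
      rcases h with h | h
      · exact absurd h (mem_Lam.1 hy).1
      · exact (mem_Ph_iff hy).1 h
    · rintro ⟨O, ⟨hO, h⟩, rfl⟩
      exact ⟨⟨O, hO, rfl⟩, mem_insert_of_mem ((mem_Ph_iff hy).2 h)⟩
  rw [h1, card_image_of_injective _ Ph_inj]

end Cfsg.Agent.Lib.Srg77
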