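import Mathlib
import Cfsg.Prelude.Def_Sporadic_a

/-!
# Strongly regular graphs with parameters (77, 16, 0, 4): the operator `M = 22 - 11 A + 2 J`

`M` satisfies `M * M = 88 M`.  For a vertex `x` the vectors `D x y = M (6 e_y + 4 e_x + 3 1_{N(x) ∩ N(y)})`
(`y` a non-neighbour of `x`) are supported on the non-neighbours of `x` and have inner products
`⟨D x y, D x z⟩ = 528 D x z y`.
-/

set_option autoImplicit false

namespace Cfsg.Agent.Lib.Srg77

open Finset

variable {V : Type*} [Fintype V] [DecidableEq V] {G : SimpleGraph V} [DecidableRel G.Adj]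

local notation "N" => G.neighborFinset

theorem card_N (hG : G.IsSRGWith 77 16 0 4) (v : V) : (N v).card = 16 := hG.regular v

theorem inter_eq_common (v w : V) : N v ∩ N w = (G.commonNeighbors v w).toFinset := by
  ext a
  simp [SimpleGraph.mem_commonNeighbors]

theorem inter_adj (hG : G.IsSRGWith 77 16 0 4) {v w : V} (h : G.Adj v w) : N v ∩ N w = ∅ := by
  rw [← Finset.card_eq_zero, inter_eq_common, Set.toFinset_card]
  exact hG.of_adj v w h

theorem inter_nonadj (hG : G.IsSRGWith 77 16 0 4) {v w : V} (hne : v ≠ w) (h : ¬ G.Adj v w) :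
    (N v ∩ N w).card = 4 := by
  rw [inter_eq_common, Set.toFinset_card]
  exact hG.of_not_adj hne h

theorem not_adj_of_common (hG : G.IsSRGWith 77 16 0 4) {u v w : V} (h1 : G.Adj u v) (h2 : G.Adj u w) :
    ¬ G.Adj v w := by
  intro h3
  have h := inter_adj hG h3
  have : u ∈ N v ∩ N w := by
    simp only [mem_inter, SimpleGraph.mem_neighborFinset]
    exact ⟨h1.symm, h2.symm⟩
  rw [h] at this
  simp at this

theorem card_inter_int (hG : G.IsSRGWith 77 16 0 4) (a e : V) :
    ((N a ∩ N e).card : ℤ) = 4 + (if e = a then 12 else 0) - (if G.Adj a e then 4 else 0) := by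
  by_cases h1 : e = a
  · subst h1
    simp [card_N hG]
  · by_cases h2 : G.Adj a e
    · simp [h1, h2, inter_adj hG h2]
    · simp [h1, h2, inter_nonadj hG (Ne.symm h1) h2]

/-- The adjacency operator. -/
def Aop (G : SimpleGraph V) [DecidableRel G.Adj] (c : V → ℤ) (a : V) : ℤ := ∑ b ∈ G.neighborFinset a, c b

theorem Aop_symm (c d : V → ℤ) : ∑ a, c a * Aop G d a = ∑ a, Aop G c a * d a := by
  simp only [Aop, Finset.mul_sum, Finset.sum_mul]
  rw [Finset.sum_comm' (s' := fun y => N y) (t' := univ)]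
  simp only [SimpleGraph.mem_neighborFinset, mem_univ, true_and, and_true]
  exact fun x y => ⟨fun h => h.symm, fun h => h.symm⟩

theorem Aop_const (hG : G.IsSRGWith 77 16 0 4) (s : ℤ) (a : V) : Aop G (fun _ => s) a = 16 * s := by
  simp [Aop, card_N hG]

theorem Aop_sum (hG : G.IsSRGWith 77 16 0 4) (c : V → ℤ) : ∑ a, Aop G c a = 16 * ∑ a, c a := by
  have h := Aop_symm (G := G) (fun _ => 1) c
  simp only [one_mul] at h
  rw [h]
  simp only [Aop_const hG, mul_assoc, mul_one, one_mul, ← Finset.mul_sum]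

theorem Aop_Aop (hG : G.IsSRGWith 77 16 0 4) (c : V → ℤ) (a : V) :
    Aop G (Aop G c) a = 12 * c a - 4 * Aop G c a + 4 * ∑ e, c e := by
  have h1 : Aop G (Aop G c) a = ∑ e, ((N a ∩ N e).card : ℤ) * c e := by
    simp only [Aop]
    rw [Finset.sum_comm' (s' := fun y => N a ∩ N y) (t' := univ)]
    · apply Finset.sum_congr rfl
      intro e _
      rw [Finset.sum_const, nsmul_eq_mul]
    · intro x y
      simp only [SimpleGraph.mem_neighborFinset, mem_inter, mem_univ, and_true]
      exact and_congr_right fun _ => G.adj_comm _ _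
  rw [h1]
  simp only [card_inter_int hG, sub_mul, add_mul, ite_mul, zero_mul]
  rw [Finset.sum_sub_distrib, Finset.sum_add_distrib]
  have h2 : ∑ e, (if e = a then 12 * c e else 0) = 12 * c a := by simp
  have h3 : ∑ e, (if G.Adj a e then 4 * c e else 0) = 4 * Aop G c a := by
    rw [← Finset.sum_filter, Aop, Finset.mul_sum]
    apply Finset.sum_congr _ (fun _ _ => rfl)
    ext e
    simp
  rw [h2, h3, Finset.mul_sum]
  ring

/-- The operator `22 - 11 A + 2 J`. -/
def Mop (G : SimpleGraph V) [DecidableRel G.Adj] (c : V → ℤ) (a : V) : ℤ :=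
  22 * c a - 11 * Aop G c a + 2 * ∑ e, c e

theorem Mop_sum (hG : G.IsSRGWith 77 16 0 4) (c : V → ℤ) : ∑ a, Mop G c a = 0 := by
  simp only [Mop]
  rw [Finset.sum_add_distrib, Finset.sum_sub_distrib, ← Finset.mul_sum, ← Finset.mul_sum, Aop_sum hG]
  rw [Finset.sum_const, Finset.card_univ, hG.card]
  simp only [nsmul_eq_mul]
  push_cast
  ring

theorem Mop_Mop (hG : G.IsSRGWith 77 16 0 4) (c : V → ℤ) (a : V) : Mop G (Mop G c) a = 88 * Mop G c a := by
  have h1 : Aop G (Mop G c) a = 22 * Aop G c a - 11 * Aop G (Aop G c) a + 32 * ∑ e, c e := by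
    simp only [Aop, Mop]
    rw [Finset.sum_add_distrib, Finset.sum_sub_distrib, ← Finset.mul_sum, ← Finset.mul_sum]
    rw [Finset.sum_const, card_N hG]
    simp only [nsmul_eq_mul]
    push_cast
    ring
  have h2 : Mop G (Mop G c) a = 22 * Mop G c a - 11 * Aop G (Mop G c) a + 2 * 0 := by
    rw [← Mop_sum hG c]
    rfl
  rw [h2, h1, Aop_Aop hG]
  simp only [Mop]
  ring

theorem Mop_symm (c d : V → ℤ) : ∑ a, c a * Mop G d a = ∑ a, Mop G c a * d a := by
  simp only [Mop, mul_add, add_mul, mul_sub, sub_mul]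
  rw [Finset.sum_add_distrib, Finset.sum_add_distrib, Finset.sum_sub_distrib, Finset.sum_sub_distrib]
  have h1 : ∑ a, c a * (11 * Aop G d a) = ∑ a, 11 * Aop G c a * d a := by
    have := Aop_symm (G := G) c d
    calc ∑ a, c a * (11 * Aop G d a) = 11 * ∑ a, c a * Aop G d a := by
          rw [Finset.mul_sum]; exact Finset.sum_congr rfl fun _ _ => by ring
      _ = 11 * ∑ a, Aop G c a * d a := by rw [this]
      _ = _ := by rw [Finset.mul_sum]; exact Finset.sum_congr rfl fun _ _ => by ring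
  have h2 : ∑ a, c a * (22 * d a) = ∑ a, 22 * c a * d a :=
    Finset.sum_congr rfl fun _ _ => by ring
  have h3 : ∑ a, c a * (2 * ∑ e, d e) = ∑ a, 2 * (∑ e, c e) * d a := by
    simp only [← Finset.sum_mul, ← Finset.mul_sum]
    ring
  rw [h1, h2, h3]

/-- `M * M = 88 M` as a bilinear identity. -/
theorem Mop_mul_Mop (hG : G.IsSRGWith 77 16 0 4) (c d : V → ℤ) :
    ∑ a, Mop G c a * Mop G d a = 88 * ∑ a, c a * Mop G d a := by
  have h := Mop_symm (G := G) c (Mop G d)
  rw [← h]
  simp only [Mop_Mop hG, Finset.mul_sum]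
  exact Finset.sum_congr rfl fun _ _ => by ring

end Cfsg.Agent.Lib.Srg77
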