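import Cfsg.Agent.Lib.Srg77.Core

/-!
# Local structure at a vertex of an `SRG(77, 16, 0, 4)`
-/

set_option autoImplicit false
set_option linter.unusedSectionVars false

namespace Cfsg.Agent.Lib.Srg77

open Finset

variable {V : Type*} [Fintype V] [DecidableEq V] {G : SimpleGraph V} [DecidableRel G.Adj]

local notation "N" => G.neighborFinset

/-- The non-neighbours of `x`. -/
def Lam (G : SimpleGraph V) [DecidableRel G.Adj] (x : V) : Finset V :=
  univ.filter fun y => y ≠ x ∧ ¬ G.Adj x y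

theorem mem_Lam {x y : V} : y ∈ Lam G x ↔ y ≠ x ∧ ¬ G.Adj x y := by simp [Lam]

theorem card_Lam (hG : G.IsSRGWith 77 16 0 4) (x : V) : (Lam G x).card = 60 := by
  have h1 : Lam G x = univ \ insert x (N x) := by
    ext y
    simp only [mem_Lam, mem_sdiff, mem_univ, true_and, mem_insert, SimpleGraph.mem_neighborFinset, not_or]
  rw [h1, card_sdiff_of_subset (subset_univ _), card_univ, hG.card, card_insert_of_notMem (by simp), card_N hG]

/-- `N(y) ∩ N(x)`. -/
def BB (G : SimpleGraph V) [DecidableRel G.Adj] (x y : V) : Finset V := G.neighborFinset y ∩ G.neighborFinset x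

theorem card_BB (hG : G.IsSRGWith 77 16 0 4) {x y : V} (hy : y ∈ Lam G x) : (BB G x y).card = 4 := by
  rw [mem_Lam] at hy
  exact inter_nonadj hG hy.1 (fun h => hy.2 h.symm)

/-- The vector `6 e_y + 4 e_x + 3 1_{BB x y}`. -/
def Wv (G : SimpleGraph V) [DecidableRel G.Adj] (x y a : V) : ℤ :=
  (if a = y then 6 else 0) + (if a = x then 4 else 0) + (if a ∈ BB G x y then 3 else 0)

theorem sum_mul_Wv (x y : V) (f : V → ℤ) :
    ∑ a, Wv G x y a * f a = 6 * f y + 4 * f x + 3 * ∑ u ∈ BB G x y, f u := by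
  simp only [Wv, add_mul, ite_mul, zero_mul]
  rw [Finset.sum_add_distrib, Finset.sum_add_distrib, Finset.sum_ite_eq', Finset.sum_ite_eq', Finset.sum_ite_mem,
    Finset.univ_inter, Finset.mul_sum]
  simp

theorem sum_Wv (hG : G.IsSRGWith 77 16 0 4) {x y : V} (hy : y ∈ Lam G x) : ∑ a, Wv G x y a = 22 := by
  have h := sum_mul_Wv (G := G) x y (fun _ => 1)
  simp only [mul_one, Finset.sum_const, card_BB hG hy] at h
  rw [h]
  norm_num

theorem Aop_Wv (x y a : V) : Aop G (Wv G x y) a =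
    (if G.Adj a y then 6 else 0) + (if G.Adj a x then 4 else 0) + 3 * ((N a ∩ BB G x y).card : ℤ) := by
  simp only [Aop, Wv]
  rw [Finset.sum_add_distrib, Finset.sum_add_distrib, Finset.sum_ite_eq', Finset.sum_ite_eq', Finset.sum_ite_mem]
  simp only [SimpleGraph.mem_neighborFinset, Finset.sum_const, nsmul_eq_mul]
  ring

/-- The vector `D x y`. -/
def Dv (G : SimpleGraph V) [DecidableRel G.Adj] (x y : V) : V → ℤ := Mop G (Wv G x y)

theorem Dv_apply (hG : G.IsSRGWith 77 16 0 4) {x y : V} (hy : y ∈ Lam G x) (a : V) : Dv G x y a =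
    22 * Wv G x y a - 11 * ((if G.Adj a y then 6 else 0) + (if G.Adj a x then 4 else 0) +
      3 * ((N a ∩ BB G x y).card : ℤ)) + 44 := by
  rw [Dv, Mop, sum_Wv hG hy, Aop_Wv]
  ring

theorem mem_BB {x y u : V} : u ∈ BB G x y ↔ G.Adj y u ∧ G.Adj x u := by
  simp [BB]

theorem Dv_x (hG : G.IsSRGWith 77 16 0 4) {x y : V} (hy : y ∈ Lam G x) : Dv G x y x = 0 := by
  rw [Dv_apply hG hy]
  have hy' := mem_Lam.1 hy
  have h1 : Wv G x y x = 4 := by
    simp [Wv, mem_BB, hy'.1.symm]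
  have h2 : N x ∩ BB G x y = BB G x y := by
    ext u
    simp only [mem_inter, mem_BB, SimpleGraph.mem_neighborFinset]
    tauto
  rw [h1, h2, card_BB hG hy]
  simp [hy'.2]

theorem Dv_N (hG : G.IsSRGWith 77 16 0 4) {x y u : V} (hy : y ∈ Lam G x) (hu : G.Adj x u) : Dv G x y u = 0 := by
  rw [Dv_apply hG hy]
  have hy' := mem_Lam.1 hy
  have h0 : u ≠ y := by
    rintro rfl
    exact hy'.2 hu
  have h2 : N u ∩ BB G x y = ∅ := by
    ext v
    simp only [mem_inter, mem_BB, SimpleGraph.mem_neighborFinset, notMem_empty, iff_false]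
    rintro ⟨h3, _, h4⟩
    exact not_adj_of_common hG h3.symm h4.symm hu.symm
  rw [h2]
  by_cases h3 : G.Adj u y
  · have : u ∈ BB G x y := mem_BB.2 ⟨h3.symm, hu⟩
    simp [Wv, h0, hu.ne.symm, this, h3, hu.symm]
  · have : u ∉ BB G x y := fun h => h3 (mem_BB.1 h).1.symm
    simp [Wv, h0, hu.ne.symm, this, h3, hu.symm]

theorem Dv_L (hG : G.IsSRGWith 77 16 0 4) {x y a : V} (hy : y ∈ Lam G x) (ha : a ∈ Lam G x) : Dv G x y a =
    (if a = y then 132 else 0) - (if G.Adj a y then 66 else 0) - 33 * ((BB G x a ∩ BB G x y).card : ℤ) + 44 := by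
  rw [Dv_apply hG hy]
  have ha' := mem_Lam.1 ha
  have h1 : N a ∩ BB G x y = BB G x a ∩ BB G x y := by
    ext u
    simp only [mem_inter, mem_BB, SimpleGraph.mem_neighborFinset]
    tauto
  have h2 : a ∉ BB G x y := fun h => ha'.2 (mem_BB.1 h).2
  have h3 : ¬ G.Adj a x := fun h => ha'.2 h.symm
  rw [h1]
  simp only [Wv, ha'.1, h2, h3, if_false]
  split_ifs <;> ring

theorem Dv_symm (hG : G.IsSRGWith 77 16 0 4) {x y a : V} (hy : y ∈ Lam G x) (ha : a ∈ Lam G x) :
    Dv G x y a = Dv G x a y := by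
  rw [Dv_L hG hy ha, Dv_L hG ha hy, inter_comm]
  by_cases h1 : a = y
  · subst h1
    rfl
  · have h2 : y ≠ a := fun h => h1 h.symm
    simp only [h1, h2, if_false, G.adj_comm y a]

theorem Dv_self (hG : G.IsSRGWith 77 16 0 4) {x y : V} (hy : y ∈ Lam G x) : Dv G x y y = 44 := by
  rw [Dv_L hG hy hy, inter_self, card_BB hG hy]
  simp

theorem Dv_adj (hG : G.IsSRGWith 77 16 0 4) {x y a : V} (hy : y ∈ Lam G x) (ha : a ∈ Lam G x) (h : G.Adj a y) :
    Dv G x y a = -22 := by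
  rw [Dv_L hG hy ha]
  have h1 : BB G x a ∩ BB G x y = ∅ := by
    ext u
    simp only [mem_inter, mem_BB, notMem_empty, iff_false]
    rintro ⟨⟨h3, _⟩, h4, _⟩
    exact not_adj_of_common hG h3.symm h4.symm h
  rw [h1]
  simp [h, h.ne]

theorem Dv_non (hG : G.IsSRGWith 77 16 0 4) {x y a : V} (hy : y ∈ Lam G x) (ha : a ∈ Lam G x) (h1 : a ≠ y)
    (h : ¬ G.Adj a y) : Dv G x y a = 44 - 33 * ((BB G x a ∩ BB G x y).card : ℤ) := by
  rw [Dv_L hG hy ha]
  simp [h, h1]
  ring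

/-- The inner product formula. -/
theorem Dv_inner (hG : G.IsSRGWith 77 16 0 4) {x y z : V} (hz : z ∈ Lam G x) :
    ∑ a, Dv G x y a * Dv G x z a = 528 * Dv G x z y := by
  have h1 : ∑ a, Dv G x y a * Dv G x z a = 88 * ∑ a, Wv G x y a * Dv G x z a := Mop_mul_Mop hG _ _
  rw [h1, sum_mul_Wv, Dv_x hG hz, Finset.sum_eq_zero (fun u hu => Dv_N hG hz (mem_BB.1 hu).2)]
  ring

theorem Dv_sum (hG : G.IsSRGWith 77 16 0 4) (x y : V) : ∑ a, Dv G x y a = 0 := Mop_sum hG _

theorem Dv_ge (hG : G.IsSRGWith 77 16 0 4) {x y z : V} (hy : y ∈ Lam G x) (hz : z ∈ Lam G x) :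
    -44 ≤ Dv G x z y := by
  have h0 : 0 ≤ ∑ a, (Dv G x y a + Dv G x z a) ^ 2 := Finset.sum_nonneg fun _ _ => sq_nonneg _
  have h1 : ∑ a, (Dv G x y a + Dv G x z a) ^ 2 =
      ∑ a, Dv G x y a * Dv G x y a + 2 * ∑ a, Dv G x y a * Dv G x z a + ∑ a, Dv G x z a * Dv G x z a := by
    rw [Finset.mul_sum, ← Finset.sum_add_distrib, ← Finset.sum_add_distrib]
    exact Finset.sum_congr rfl fun _ _ => by ring
  rw [h1, Dv_inner hG hy, Dv_inner hG hz, Dv_inner hG hz, Dv_self hG hy, Dv_self hG hz] at h0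
  omega

theorem Dv_eq_of (hG : G.IsSRGWith 77 16 0 4) {x y z : V} (hy : y ∈ Lam G x) (hz : z ∈ Lam G x)
    (h : Dv G x z y = 44) : Dv G x y = Dv G x z := by
  have h1 : ∑ a, (Dv G x y a - Dv G x z a) ^ 2 =
      ∑ a, Dv G x y a * Dv G x y a - 2 * ∑ a, Dv G x y a * Dv G x z a + ∑ a, Dv G x z a * Dv G x z a := by
    rw [Finset.mul_sum, ← Finset.sum_sub_distrib, ← Finset.sum_add_distrib]
    exact Finset.sum_congr rfl fun _ _ => by ring
  rw [Dv_inner hG hy, Dv_inner hG hz, Dv_inner hG hz, Dv_self hG hy, Dv_self hG hz, h] at h1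
  have h2 : ∑ a, (Dv G x y a - Dv G x z a) ^ 2 = 0 := by rw [h1]; norm_num
  rw [Finset.sum_eq_zero_iff_of_nonneg (fun _ _ => sq_nonneg _)] at h2
  funext a
  have := h2 a (mem_univ a)
  have h3 : Dv G x y a - Dv G x z a = 0 := by simpa using this
  omega

theorem Dv_tri (hG : G.IsSRGWith 77 16 0 4) {x y a : V} (hy : y ∈ Lam G x) (ha : a ∈ Lam G x) :
    Dv G x y a = 44 ∨ Dv G x y a = 11 ∨ Dv G x y a = -22 := by
  by_cases h1 : a = y
  · subst h1
    exact Or.inl (Dv_self hG hy)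
  · by_cases h2 : G.Adj a y
    · exact Or.inr (Or.inr (Dv_adj hG hy ha h2))
    · have h3 := Dv_ge hG ha hy
      rw [Dv_non hG hy ha h1 h2] at h3 ⊢
      have h4 : (BB G x a ∩ BB G x y).card ≤ 2 := by omega
      interval_cases (BB G x a ∩ BB G x y).card <;> norm_num

theorem Dv_off (hG : G.IsSRGWith 77 16 0 4) {x y a : V} (hy : y ∈ Lam G x) (ha : a ∉ Lam G x) : Dv G x y a = 0 := by
  rw [mem_Lam] at ha
  by_cases h1 : a = x
  · subst h1
    exact Dv_x hG hy
  · have : G.Adj x a := by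
      by_contra h2
      exact ha ⟨h1, h2⟩
    exact Dv_N hG hy this

theorem sum_Lam_Dv (hG : G.IsSRGWith 77 16 0 4) {x y : V} (hy : y ∈ Lam G x) :
    ∑ a ∈ Lam G x, Dv G x y a = 0 := by
  rw [Finset.sum_subset (subset_univ _) (fun a _ ha => Dv_off hG hy ha), Dv_sum hG]

theorem sum_Lam_Dv_sq (hG : G.IsSRGWith 77 16 0 4) {x y : V} (hy : y ∈ Lam G x) :
    ∑ a ∈ Lam G x, Dv G x y a * Dv G x y a = 23232 := by
  rw [Finset.sum_subset (subset_univ _) (fun a _ ha => by rw [Dv_off hG hy ha]; ring), Dv_inner hG hy, Dv_self hG hy]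
  norm_num

/-- Each class has four elements. -/
theorem card_class (hG : G.IsSRGWith 77 16 0 4) {x y : V} (hy : y ∈ Lam G x) :
    ((Lam G x).filter fun a => Dv G x y a = 44).card = 4 := by
  have h1 : ∑ a ∈ Lam G x, (if Dv G x y a = 44 then (2178 : ℤ) else 0) =
      ∑ a ∈ Lam G x, (Dv G x y a * Dv G x y a + 11 * Dv G x y a - 242) := by
    apply Finset.sum_congr rfl
    intro a ha
    rcases Dv_tri hG hy ha with h | h | h <;> rw [h] <;> norm_num
  rw [Finset.sum_ite, Finset.sum_sub_distrib, Finset.sum_add_distrib, ← Finset.mul_sum, sum_Lam_Dv hG hy,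
    sum_Lam_Dv_sq hG hy] at h1
  simp only [Finset.sum_const, card_Lam hG, nsmul_eq_mul, smul_eq_mul, Finset.sum_const_zero, add_zero] at h1
  push_cast at h1
  omega

theorem Dv_eq_iff (hG : G.IsSRGWith 77 16 0 4) {x y a : V} (hy : y ∈ Lam G x) (ha : a ∈ Lam G x) :
    Dv G x a = Dv G x y ↔ Dv G x y a = 44 := by
  constructor
  · intro h
    rw [← h]
    exact Dv_self hG ha
  · intro h
    exact Dv_eq_of hG ha hy h

/-- The classes, as the set of values of `Dv`. -/
def Kx (G : SimpleGraph V) [DecidableRel G.Adj] (x : V) : Finset (V → ℤ) := (Lam G x).image (Dv G x)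

theorem card_fiber (hG : G.IsSRGWith 77 16 0 4) {x : V} {b : V → ℤ} (hb : b ∈ Kx G x) :
    ((Lam G x).filter fun a => Dv G x a = b).card = 4 := by
  obtain ⟨y, hy, rfl⟩ := mem_image.1 hb
  rw [← card_class hG hy]
  congr 1
  exact Finset.filter_congr fun a ha => Dv_eq_iff hG hy ha

theorem card_Kx (hG : G.IsSRGWith 77 16 0 4) (x : V) : (Kx G x).card = 15 := by
  have h := Finset.card_eq_sum_card_image (Dv G x) (Lam G x)
  rw [show (Lam G x).image (Dv G x) = Kx G x from rfl, Finset.sum_congr rfl (fun b hb => card_fiber hG hb),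
    card_Lam hG] at h
  simp only [Finset.sum_const, smul_eq_mul] at h
  omega

/-- Sums over the non-neighbours are sums over the classes. -/
theorem sum_Lam_fiber (hG : G.IsSRGWith 77 16 0 4) {x : V} (H : (V → ℤ) → ℤ) :
    ∑ a ∈ Lam G x, H (Dv G x a) = 4 * ∑ b ∈ Kx G x, H b := by
  rw [← Finset.sum_fiberwise_of_maps_to (t := Kx G x) (g := Dv G x) (fun a ha => mem_image_of_mem _ ha), Finset.mul_sum]
  apply Finset.sum_congr rfl
  intro b hb
  have h1 : ∑ a ∈ (Lam G x).filter (fun a => Dv G x a = b), H (Dv G x a) =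
      ∑ a ∈ (Lam G x).filter (fun a => Dv G x a = b), H b :=
    Finset.sum_congr rfl fun a ha => by rw [(mem_filter.1 ha).2]
  rw [h1, Finset.sum_const, card_fiber hG hb]
  simp

end Cfsg.Agent.Lib.Srg77
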